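import Mathlib
import Cfsg.Agent.Lib.Helper85.USim.Defs
import Cfsg.Agent.Lib.Helper40.Subf2
import Cfsg.Agent.Lib.Helper45.HermBasic

/-!
# USIM (S5982): [13] `pInvEven` - even `q`: non-scalar elements with scalar square are
`SL`-conjugate into `HU`
-/

set_option autoImplicit false
open scoped Matrix MatrixGroups

namespace Cfsg.Agent.Lib.Helper11.USim

open Cfsg.Agent.Lib.Helper85.USim Cfsg.Agent.Lib.Helper40 Cfsg.Agent.Lib.Helper40.Subf Matrix

universe u

theorem Jm_mul_transpose {F : Type u} [Field F] (n a : ℕ) :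
    Jm F n a * (Jm F n a)ᵀ =
      Matrix.diagonal (fun i : Fin n => if (i : ℕ) < a then (1 : F) else 0) := by
  classical
  ext i k
  rw [Matrix.mul_apply]
  simp only [Jm, Matrix.of_apply, Matrix.transpose_apply]
  have hin := i.isLt
  by_cases hik : i = k
  · subst hik
    rw [Matrix.diagonal_apply_eq]
    by_cases hi : (i : ℕ) < a
    · rw [if_pos hi, Finset.sum_eq_single (⟨n - 1 - (i : ℕ), by omega⟩ : Fin n)]
      · rw [if_pos ⟨hi, by simp only; omega⟩, mul_one]
      · intro j _ hj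
        rw [if_neg, zero_mul]
        rintro ⟨_, h⟩
        apply hj
        apply Fin.ext
        simp only
        omega
      · intro h
        exact absurd (Finset.mem_univ _) h
    · rw [if_neg hi]
      apply Finset.sum_eq_zero
      intro j _
      rw [if_neg (fun h => hi h.1), zero_mul]
  · rw [Matrix.diagonal_apply_ne _ hik]
    apply Finset.sum_eq_zero
    intro j _
    by_cases h1 : (i : ℕ) < a ∧ (i : ℕ) + (j : ℕ) + 1 = n
    · rw [if_pos h1, one_mul, if_neg]
      rintro ⟨_, h⟩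
      apply hik
      apply Fin.ext
      omega
    · rw [if_neg h1, zero_mul]

theorem Jm_JtJ {F : Type u} [Field F] (n a : ℕ) :
    Jm F n a * (Jm F n a)ᵀ * Jm F n a = Jm F n a := by
  classical
  rw [Jm_mul_transpose]
  ext i j
  rw [Matrix.diagonal_mul]
  simp only [Jm, Matrix.of_apply]
  by_cases hi : (i : ℕ) < a
  · rw [if_pos hi, one_mul]
  · rw [if_neg hi, zero_mul, if_neg (fun h => hi h.1)]

/-- **[INVEVEN]** -/
theorem pInvEven (hmem : PMem.{u}) : PInvEven.{u} := by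
  intro F _ _ q₀ n hF h2 hn x hx z hxz hns
  classical
  have hF2 : ringChar F = 2 := CharP.ringChar_of_prime_eq_zero Nat.prime_two h2
  obtain ⟨b, hb⟩ := FiniteField.isSquare_of_char_two hF2 z
  have hne : Nonempty (Fin n) := ⟨⟨0, by omega⟩⟩
  have hdx : (x : Matrix (Fin n) (Fin n) F).det = 1 := (mem_SLn_iff x).mp hx
  have hb0 : b ≠ 0 := by
    rintro rfl
    rw [hb, mul_zero, zero_smul] at hxz
    have h3 := congrArg Matrix.det hxz
    rw [Matrix.det_mul, hdx, Matrix.det_zero] at h3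
    simp at h3
  obtain ⟨N, hN⟩ : ∃ N : Matrix (Fin n) (Fin n) F,
      N = b⁻¹ • (x : Matrix (Fin n) (Fin n) F) - 1 := ⟨_, rfl⟩
  have hxN : (x : Matrix (Fin n) (Fin n) F) = b • (N + 1) := by
    rw [hN, sub_add_cancel, smul_smul, mul_inv_cancel₀ hb0, one_smul]
  have hNN : N * N = 0 := by
    have h3 : N * N = (b⁻¹ * b⁻¹) • ((x : Matrix (Fin n) (Fin n) F) *
        (x : Matrix (Fin n) (Fin n) F)) - (2 : F) • (b⁻¹ • (x : Matrix (Fin n) (Fin n) F)) + 1 := by
      rw [hN, two_smul]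
      simp only [sub_mul, mul_sub, Matrix.smul_mul, Matrix.mul_smul, smul_smul, Matrix.one_mul,
        Matrix.mul_one]
      abel
    rw [h3, hxz, h2, zero_smul, sub_zero, smul_smul, hb]
    have h4 : b⁻¹ * b⁻¹ * (b * b) = 1 := by field_simp
    rw [h4, one_smul, ← two_smul F (1 : Matrix (Fin n) (Fin n) F), h2, zero_smul]
  have hN0 : N ≠ 0 := by
    intro h
    apply hns b
    rw [hxN, h, zero_add]
  obtain ⟨a, ha⟩ : ∃ a : ℕ, a = N.rank := ⟨_, rfl⟩
  have ha1 : 1 ≤ a := by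
    by_contra h
    have h3 : N.rank = 0 := by omega
    exact hN0 (PGLClasses.eq_zero_of_rank_eq_zero N h3)
  have h2a : 2 * a ≤ n := by
    have h3 := Matrix.rank_add_rank_le_card_of_mul_eq_zero hNN
    rw [Fintype.card_fin] at h3
    omega
  have hJJ : Jm F n a * Jm F n a = 0 := Jm_mul_self n a h2a
  have hranks : ∀ j, (N ^ j).rank = (Jm F n a ^ j).rank := by
    intro j
    rcases j with _ | _ | j
    · simp
    · rw [zero_add, pow_one, pow_one, Jm_rank n a (by omega), ha]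
    · rw [pow_succ, pow_succ, Matrix.mul_assoc, hNN, Matrix.mul_zero, pow_succ, pow_succ,
        Matrix.mul_assoc, hJJ, Matrix.mul_zero]
  obtain ⟨g, hg⟩ := Jordan.similar_of_rank_pow_eq N (Jm F n a) ⟨2, by rw [pow_two, hNN]⟩ hranks
  have hδ0 : (g : Matrix (Fin n) (Fin n) F).det ≠ 0 :=
    ((Matrix.isUnit_iff_isUnit_det _).mp g.isUnit).ne_zero
  obtain ⟨s, hs⟩ := FiniteField.isSquare_of_char_two hF2 (g : Matrix (Fin n) (Fin n) F).det
  have hs0 : s ≠ 0 := by
    rintro rfl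
    apply hδ0
    rw [hs, mul_zero]
  obtain ⟨W, hW⟩ : ∃ W : Matrix (Fin n) (Fin n) F, W = Matrix.diagonal
      (fun i : Fin n => if (i : ℕ) = 0 ∨ (i : ℕ) + 1 = n then s⁻¹ else 1) := ⟨_, rfl⟩
  have hWdet : W.det = s⁻¹ * s⁻¹ := by
    rw [hW, Matrix.det_diagonal, prod_w n hn]
  have hWJ : W * Jm F n a = Jm F n a * W := by
    rw [hW]
    exact w_comm n a s⁻¹
  -- the symmetric model
  obtain ⟨J, hJ⟩ : ∃ J : Matrix (Fin n) (Fin n) F, J = Jm F n a := ⟨_, rfl⟩
  rw [← hJ] at hJJ hg hWJ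
  have hJt : Jᵀ * Jᵀ = 0 := by
    rw [← Matrix.transpose_mul, hJJ, Matrix.transpose_zero]
  have hJJtJ : J * Jᵀ * J = J := by
    rw [hJ]
    exact Jm_JtJ n a
  have hJtJJt : Jᵀ * J * Jᵀ = Jᵀ := by
    have := congrArg Matrix.transpose hJJtJ
    rw [Matrix.transpose_mul, Matrix.transpose_mul, Matrix.transpose_transpose,
      ← Matrix.mul_assoc] at this
    exact this
  have h2M : ∀ M : Matrix (Fin n) (Fin n) F, M + M = 0 := by
    intro M
    rw [← two_smul F M, h2, zero_smul]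
  obtain ⟨U, hU⟩ : ∃ U : Matrix (Fin n) (Fin n) F, U = 1 + Jᵀ := ⟨_, rfl⟩
  have hUU : U * U = 1 := by
    rw [hU]
    simp only [Matrix.add_mul, Matrix.mul_add, Matrix.one_mul, Matrix.mul_one, hJt, add_zero]
    rw [add_assoc, h2M, add_zero]
  obtain ⟨K, hKdef⟩ : ∃ K : Matrix (Fin n) (Fin n) F, K = U * J * U := ⟨_, rfl⟩
  have hK : K = J + J * Jᵀ + Jᵀ * J + Jᵀ := by
    rw [hKdef, hU]
    simp only [Matrix.add_mul, Matrix.mul_add, Matrix.one_mul, Matrix.mul_one]
    rw [hJtJJt]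
    abel
  have hKsymm : Kᵀ = K := by
    rw [hK]
    simp only [Matrix.transpose_add, Matrix.transpose_mul, Matrix.transpose_transpose]
    abel
  have hKK : K * K = 0 := by
    rw [hKdef]
    calc U * J * U * (U * J * U) = U * J * (U * U) * J * U := by simp only [Matrix.mul_assoc]
      _ = U * (J * J) * U := by rw [hUU, Matrix.mul_one, Matrix.mul_assoc U J J]
      _ = 0 := by rw [hJJ, Matrix.mul_zero, Matrix.zero_mul]
  obtain ⟨σ, hσ⟩ : ∃ σ : F →+* F, ∀ c : F, σ c = c ^ q₀ :=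
    ⟨Cfsg.Agent.Lib.Helper45.sigmaQ hF, fun c => rfl⟩
  have hJσ : σ.mapMatrix J = J := by
    rw [hJ]
    ext i j
    simp only [RingHom.mapMatrix_apply, Matrix.map_apply, Jm, Matrix.of_apply]
    split_ifs <;> simp
  have hJtσ : σ.mapMatrix Jᵀ = Jᵀ := by
    rw [RingHom.mapMatrix_apply, Matrix.transpose_map, ← RingHom.mapMatrix_apply, hJσ]
  have hKσ : σ.mapMatrix K = K := by
    rw [hK]
    simp only [map_add, map_mul, hJσ, hJtσ]
  obtain ⟨Y, hY⟩ : ∃ Y : Matrix (Fin n) (Fin n) F, Y = b • (1 + K) := ⟨_, rfl⟩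
  have hYmem : Yᵀ * Y.map (fun c : F => c ^ q₀) = b ^ (q₀ + 1) • (1 : Matrix (Fin n) (Fin n) F) := by
    have e1 : Yᵀ = b • (1 + K) := by
      rw [hY, Matrix.transpose_smul, Matrix.transpose_add, Matrix.transpose_one, hKsymm]
    have e2 : Y.map (fun c : F => c ^ q₀) = b ^ q₀ • (1 + K) := by
      have e3 : (fun c : F => c ^ q₀) = ⇑σ := by
        funext c
        rw [hσ]
      rw [e3, hY, Matrix.map_smul' (⇑σ) b (1 + K) (fun a₁ a₂ => map_mul σ a₁ a₂), hσ,
        ← RingHom.mapMatrix_apply, map_add, map_one, hKσ]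
    rw [e1, e2, Matrix.smul_mul, Matrix.mul_smul, smul_smul, ← pow_succ']
    congr 1
    simp only [Matrix.add_mul, Matrix.mul_add, Matrix.one_mul, Matrix.mul_one, hKK, add_zero]
    rw [add_assoc, h2M, add_zero]
  -- the conjugating matrix
  obtain ⟨G, hG⟩ : ∃ G : Matrix (Fin n) (Fin n) F,
      G = U * W * (g : Matrix (Fin n) (Fin n) F) := ⟨_, rfl⟩
  have hdU : U.det = 1 := by
    have h3 := congrArg Matrix.det hUU
    rw [Matrix.det_mul, Matrix.det_one] at h3
    have h4 : (U.det - 1) * (U.det - 1) = 0 := by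
      linear_combination h3 + (1 - U.det) * h2
    exact sub_eq_zero.mp (mul_self_eq_zero.mp h4)
  have hGdet : G.det = 1 := by
    rw [hG, Matrix.det_mul, Matrix.det_mul, hdU, hWdet, hs]
    field_simp
  have hGx : G * (x : Matrix (Fin n) (Fin n) F) = Y * G := by
    rw [hG, hY, hxN, Matrix.mul_smul, Matrix.smul_mul]
    congr 1
    rw [Matrix.mul_add, Matrix.mul_one, Matrix.add_mul, Matrix.one_mul, hKdef]
    rw [add_comm]
    congr 1
    calc U * W * (g : Matrix (Fin n) (Fin n) F) * N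
        = U * W * ((g : Matrix (Fin n) (Fin n) F) * N) := by rw [Matrix.mul_assoc]
      _ = U * (W * J) * (g : Matrix (Fin n) (Fin n) F) := by
          rw [hg]
          simp only [Matrix.mul_assoc]
      _ = U * J * (U * U) * W * (g : Matrix (Fin n) (Fin n) F) := by
          rw [hWJ, hUU, Matrix.mul_one]
          simp only [Matrix.mul_assoc]
      _ = U * J * U * (U * W * (g : Matrix (Fin n) (Fin n) F)) := by
          simp only [Matrix.mul_assoc]
  obtain ⟨c, hc⟩ : ∃ c : GL (Fin n) F, (c : Matrix (Fin n) (Fin n) F) = G :=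
    ⟨Matrix.GeneralLinearGroup.mkOfDetNeZero G (by rw [hGdet]; exact one_ne_zero), rfl⟩
  have hval : ((c * x * c⁻¹ : GL (Fin n) F) : Matrix (Fin n) (Fin n) F) = Y := by
    have h5 : c * x * c⁻¹ = c * x * c⁻¹ := rfl
    have h6 : ((c * x : GL (Fin n) F) : Matrix (Fin n) (Fin n) F) =
        Y * (c : Matrix (Fin n) (Fin n) F) := by
      rw [Units.val_mul, hc, hGx]
    rw [Units.val_mul, h6, Matrix.mul_assoc, ← Units.val_mul, mul_inv_cancel, Units.val_one,
      Matrix.mul_one]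
  refine ⟨c⁻¹, ?_, ?_⟩
  · apply Subgroup.inv_mem
    rw [mem_SLn_iff, hc, hGdet]
  · rw [inv_inv]
    exact (hmem q₀ n hF _).mpr ⟨b ^ (q₀ + 1), pow_ne_zero _ hb0, by rw [hval]; exact hYmem⟩

end Cfsg.Agent.Lib.Helper11.USim
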