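import Mathlib
import Cfsg.Agent.Lib.Helper85.USim.Defs
import Cfsg.Agent.Lib.Helper11.QSim.Inv
import Cfsg.Agent.Lib.Helper40.Semisimple

/-!
# USIM (S5982): [12] `pInvOdd` - odd `q`: elements with `x² = b²` are `SL`-conjugate into `HU`
-/

set_option autoImplicit false
open scoped Matrix Polynomial MatrixGroups

namespace Cfsg.Agent.Lib.Helper11.USim

open Cfsg.Agent.Lib.Helper85.USim Matrix Polynomial

universe u

/-- Two matrices with `M² = z`, `2 z ≠ 0`, and the same characteristic polynomial: `SL`-conjugacy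
in matrix form. -/
theorem sl_conj_of_sq {F : Type u} [Field F] [Finite F] (h2 : (2 : F) ≠ 0) {n : ℕ}
    (x : GL (Fin n) F) (hx : x ∈ SLn n F) (z : F) (hz : z ≠ 0)
    (hxz : (x : Matrix (Fin n) (Fin n) F) * (x : Matrix (Fin n) (Fin n) F) = z • 1)
    (y : Matrix (Fin n) (Fin n) F) (hyz : y * y = z • 1)
    (hc : y.charpoly = (x : Matrix (Fin n) (Fin n) F).charpoly) :
    ∃ g ∈ SLn n F, ((g⁻¹ * x * g : GL (Fin n) F) : Matrix (Fin n) (Fin n) F) = y := by
  classical
  have hdx : (x : Matrix (Fin n) (Fin n) F).det = 1 := (mem_SLn_iff x).mp hx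
  have hdy : y.det = 1 := by
    rw [Matrix.det_eq_sign_charpoly_coeff, hc, ← Matrix.det_eq_sign_charpoly_coeff, hdx]
  have hss : ∀ M : Matrix (Fin n) (Fin n) F, M * M = z • 1 →
      Module.End.IsSemisimple (Matrix.toLin' M) := by
    intro M hM
    have hsq : Squarefree ((X : F[X]) ^ 2 - C z) :=
      (separable_X_pow_sub_C z (by exact_mod_cast h2) hz).squarefree
    apply Module.End.isSemisimple_of_squarefree_aeval_eq_zero hsq
    have h1 : (Matrix.toLin' M) ^ 2 = z • 1 := by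
      change Matrix.toLinAlgEquiv' M ^ 2 = z • 1
      rw [← map_pow, pow_two, hM, map_smul, map_one]
    rw [map_sub, map_pow, aeval_X, aeval_C, h1, Algebra.algebraMap_eq_smul_one, sub_self]
  obtain ⟨G, hG⟩ : ∃ G : Matrix.SpecialLinearGroup (Fin n) F,
      (G : Matrix (Fin n) (Fin n) F) = (x : Matrix (Fin n) (Fin n) F) := ⟨⟨_, hdx⟩, rfl⟩
  obtain ⟨H, hH⟩ : ∃ H : Matrix.SpecialLinearGroup (Fin n) F,
      (H : Matrix (Fin n) (Fin n) F) = y := ⟨⟨_, hdy⟩, rfl⟩
  have hconj := Cfsg.Agent.Lib.Helper40.isConj_SL_of_semisimple G H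
    (by rw [hG]; exact hss _ hxz) (by rw [hH]; exact hss _ hyz) (by rw [hG, hH, hc])
  obtain ⟨c, hcc⟩ := isConj_iff.mp hconj
  have hval : ((Matrix.SpecialLinearGroup.toGL c * x * (Matrix.SpecialLinearGroup.toGL c)⁻¹ :
      GL (Fin n) F) : Matrix (Fin n) (Fin n) F) = y := by
    have h5 := congrArg Subtype.val hcc
    rw [← map_inv, Units.val_mul, Units.val_mul, Matrix.SpecialLinearGroup.coe_GL_coe_matrix,
      Matrix.SpecialLinearGroup.coe_GL_coe_matrix, ← hH, ← h5, ← hG]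
    rfl
  refine ⟨(Matrix.SpecialLinearGroup.toGL c)⁻¹, ?_, ?_⟩
  · apply Subgroup.inv_mem
    rw [mem_SLn_iff, Matrix.SpecialLinearGroup.coe_GL_coe_matrix]
    exact c.2
  · rw [inv_inv]
    exact hval

/-- `q₀` is odd when `|F| = q₀²` and `2 ≠ 0`. -/
theorem odd_q0 {F : Type u} [Field F] [Fintype F] {q₀ : ℕ} (hF : Fintype.card F = q₀ ^ 2)
    (h2 : (2 : F) ≠ 0) : Odd q₀ := by
  by_contra hodd
  rw [Nat.not_odd_iff_even] at hodd
  have h1 : Fintype.card F % 2 = 0 := by
    rw [hF]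
    exact Nat.even_iff.mp (hodd.pow_of_ne_zero two_ne_zero)
  have h3 : ringChar F = 2 := FiniteField.even_card_iff_char_two.mpr h1
  have h4 : ((ringChar F : ℕ) : F) = 0 := CharP.cast_eq_zero F (ringChar F)
  rw [h3] at h4
  exact h2 (by exact_mod_cast h4)

/-- **[INVODD]** -/
theorem pInvOdd (hmem : PMem.{u}) : PInvOdd.{u} := by
  intro F _ _ q₀ n hF h2 hn x hx b hb hxz
  classical
  obtain ⟨k, hk, hχ⟩ := Cfsg.Agent.Lib.Helper11.QSim.charpoly_sq_square h2
    (x : Matrix (Fin n) (Fin n) F) b hxz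
  obtain ⟨ε, hε⟩ : ∃ ε : Fin n → F, ε = fun j : Fin n => if (j : ℕ) < k then b else -b :=
    ⟨_, rfl⟩
  have hε1 : ∀ j, ε j = b ∨ ε j = -b := by
    intro j
    rw [hε]
    by_cases h : (j : ℕ) < k
    · left
      exact if_pos h
    · right
      exact if_neg h
  have hεε : ∀ j, ε j * ε j = b * b := by
    intro j
    rcases hε1 j with h | h <;> rw [h]
    ring
  have hDD : (Matrix.diagonal ε) * (Matrix.diagonal ε) =
      (b * b) • (1 : Matrix (Fin n) (Fin n) F) := by
    rw [Matrix.diagonal_mul_diagonal]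
    have : (fun i => ε i * ε i) = fun _ => b * b := funext hεε
    rw [this, Matrix.smul_one_eq_diagonal]
  have hcD : (Matrix.diagonal ε).charpoly = (x : Matrix (Fin n) (Fin n) F).charpoly := by
    rw [Matrix.charpoly_diagonal, hχ]
    have e1 : ∏ j : Fin n, ((X : F[X]) - C (ε j)) =
        ∏ j : Fin n, (if (j : ℕ) < k then ((X : F[X]) - C b) else (X - C (-b))) := by
      apply Finset.prod_congr rfl
      intro j _
      have hj : ε j = if (j : ℕ) < k then b else -b := by rw [hε]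
      rw [hj]
      by_cases h : (j : ℕ) < k
      · rw [if_pos h, if_pos h]
      · rw [if_neg h, if_neg h]
    rw [e1, Fin.prod_univ_eq_prod_range
      (fun i => if i < k then ((X : F[X]) - C b) else (X - C (-b))) n,
      Cfsg.Agent.Lib.Helper11.QSim.prod_ite_lt _ _ n k hk]
  obtain ⟨g, hg, hval⟩ := sl_conj_of_sq h2 x hx (b * b) (mul_ne_zero hb hb) hxz
    (Matrix.diagonal ε) hDD hcD
  have hq0 : q₀ ≠ 0 := by
    rintro rfl
    have := Fintype.card_pos (α := F)
    rw [hF] at this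
    simp at this
  have hev : Even (q₀ + 1) := (odd_q0 hF h2).add_one
  refine ⟨g, hg, (hmem q₀ n hF _).mpr ⟨b ^ (q₀ + 1), pow_ne_zero _ hb, ?_⟩⟩
  have hmapD : (Matrix.diagonal ε).map (fun a : F => a ^ q₀) =
      Matrix.diagonal (fun j => ε j ^ q₀) :=
    Matrix.diagonal_map (f := fun a : F => a ^ q₀) (zero_pow hq0)
  rw [hval, Matrix.diagonal_transpose, hmapD,
    Matrix.diagonal_mul_diagonal, Matrix.smul_one_eq_diagonal]
  congr 1
  funext j
  rcases hε1 j with h | h
  · rw [h, pow_succ']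
  · rw [h, ← pow_succ', hev.neg_pow]

end Cfsg.Agent.Lib.Helper11.USim
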